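import Cfsg.Agent.H709.PB.RegCount
import Cfsg.Agent.H593.IMInv
import Cfsg.Agent.Ly.McL.Simple

/-!
# S4826: an inverted element of prime order `r`, `r² ∤ |G|` (helper841)

`BD_of_inv` : criterion for a character in the principal `r`-block of degree divisible by `p`.
-/

set_option autoImplicit false

open Cfsg

namespace Cfsg.Agent.H841.PB

open Subgroup Cfsg.Agent.H593.IMInv Cfsg.Agent.H133.PB Cfsg.Agent.H709.PB

universe u

variable {G : Type u} [Group G] [Finite G]

section aux

/-- elements of order `r` generate conjugate subgroups -/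
theorem exists_conj_zpowers {r : ℕ} [hr : Fact r.Prime] (hG : ¬ r ^ 2 ∣ Nat.card G) {x y : G} (hx : orderOf x = r)
    (hy : orderOf y = r) : ∃ g : G, ∀ z, z ∈ zpowers y ↔ g⁻¹ * z * g ∈ zpowers x := by
  have key : ∀ z : G, orderOf z = r → ¬ r ∣ (zpowers z).index := by
    intro z hz hd
    apply hG
    rw [← (zpowers z).card_mul_index, Nat.card_zpowers, hz, pow_two]
    exact Nat.mul_dvd_mul_left r hd
  have hp : ∀ z : G, orderOf z = r → IsPGroup r (zpowers z) := fun z hz =>
    IsPGroup.of_card (n := 1) (by rw [Nat.card_zpowers, hz, pow_one])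
  let P : Sylow r G := (hp x hx).toSylow (key x hx)
  let Q : Sylow r G := (hp y hy).toSylow (key y hy)
  obtain ⟨g, hg⟩ := MulAction.exists_smul_eq G P Q
  refine ⟨g, fun z => ?_⟩
  have h1 : z ∈ ((Q : Sylow r G) : Subgroup G) ↔ g⁻¹ * z * g ∈ ((P : Sylow r G) : Subgroup G) := by
    rw [← hg, Sylow.coe_subgroup_smul, Subgroup.mem_pointwise_smul_iff_inv_smul_mem, ← map_inv, MulAut.smul_def,
      MulAut.conj_apply, inv_inv]
  exact h1

theorem card_sylow_of {r : ℕ} [hr : Fact r.Prime] (hG : ¬ r ^ 2 ∣ Nat.card G) {x : G} (hx : orderOf x = r)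
    (P : Sylow r G) : Nat.card (P : Subgroup G) = r := by
  have hp : IsPGroup r (zpowers x) := IsPGroup.of_card (n := 1) (by rw [Nat.card_zpowers, hx, pow_one])
  have key : ¬ r ∣ (zpowers x).index := by
    intro hd
    apply hG
    rw [← (zpowers x).card_mul_index, Nat.card_zpowers, hx, pow_two]
    exact Nat.mul_dvd_mul_left r hd
  let Q : Sylow r G := hp.toSylow key
  rw [Nat.card_congr (P.equiv Q).toEquiv]
  show Nat.card (zpowers x) = r
  rw [Nat.card_zpowers, hx]

omit [Finite G] in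
/-- inversion passes to powers -/
theorem inv_of_mem {b y z : G} (hz : z ∈ zpowers y) (hb : b * y * b⁻¹ = y⁻¹) : b * z * b⁻¹ = z⁻¹ := by
  obtain ⟨n, rfl⟩ := hz
  simp only
  rw [← conj_zpow, hb, inv_zpow]

/-- a commuting element of order `r` generates the same subgroup -/
theorem zpowers_eq_of_comm {r : ℕ} [hr : Fact r.Prime] (hG : ¬ r ^ 2 ∣ Nat.card G) {y z : G} (hy : orderOf y = r)
    (hz : orderOf z = r) (hc : z * y = y * z) : zpowers z = zpowers y := by
  have hp : ∀ w : G, orderOf w = r → IsPGroup r (zpowers w) := fun w hw =>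
    IsPGroup.of_card (n := 1) (by rw [Nat.card_zpowers, hw, pow_one])
  have key : ¬ r ∣ (zpowers y).index := by
    intro hd
    apply hG
    rw [← (zpowers y).card_mul_index, Nat.card_zpowers, hy, pow_two]
    exact Nat.mul_dvd_mul_left r hd
  let Q : Sylow r G := (hp y hy).toSylow key
  have hn : zpowers z ≤ normalizer ((zpowers y : Subgroup G) : Set G) := by
    rw [zpowers_le]
    refine centralizer_le_normalizer _ ?_
    rw [mem_centralizer_iff]
    rintro _ ⟨m, rfl⟩
    exact ((show Commute z y from hc).zpow_right m).eq.symm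
  have h2 : IsPGroup r (zpowers y ⊔ zpowers z : Subgroup G) :=
    IsPGroup.to_sup_of_normal_left' (hp y hy) (hp z hz) hn
  have h3 : zpowers y ⊔ zpowers z = zpowers y := Q.is_maximal' h2 le_sup_left
  refine Subgroup.eq_of_le_of_card_ge ?_ (by rw [Nat.card_zpowers, Nat.card_zpowers, hy, hz])
  rw [← h3]
  exact le_sup_right

omit [Finite G] in
/-- the number of elements of order `r` in a cyclic subgroup -/
theorem card_orderOf_zpowers {r : ℕ} [hr : Fact r.Prime] [Fintype G] (u : G) [DecidablePred fun y : G => orderOf y = r ∧ y ∈ zpowers u] :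
    (Finset.univ.filter fun y : G => orderOf y = r ∧ y ∈ zpowers u).card = if r ∣ orderOf u then r - 1 else 0 := by
  classical
  split_ifs with h
  · have h1 := IsCyclic.card_orderOf_eq_totient (α := zpowers u) (d := r) (by rw [Fintype.card_zpowers]; exact h)
    rw [Nat.totient_prime hr.out] at h1
    rw [← h1]
    refine Finset.card_bij' (fun y hy => ⟨y, ((Finset.mem_filter.1 hy).2).2⟩) (fun a _ => (a : G)) ?_ ?_ ?_ ?_
    · intro y hy
      rw [Finset.mem_filter] at hy ⊢
      exact ⟨Finset.mem_univ _, by rw [Subgroup.orderOf_mk]; exact hy.2.1⟩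
    · intro a ha
      rw [Finset.mem_filter] at ha ⊢
      exact ⟨Finset.mem_univ _, by rw [Subgroup.orderOf_coe]; exact ha.2, a.2⟩
    · intro y hy; rfl
    · intro a ha; rfl
  · rw [Finset.card_eq_zero, Finset.filter_eq_empty_iff]
    rintro y - ⟨h1, h2⟩
    apply h
    rw [← h1]
    exact orderOf_dvd_of_mem_zpowers h2

/-- the number of conjugates of `s` inverting an element of order `r` does not depend on the element -/
theorem ninv_eq {r : ℕ} [hr : Fact r.Prime] (hG : ¬ r ^ 2 ∣ Nat.card G) (s : G) {x y : G} (hx : orderOf x = r)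
    (hy : orderOf y = r) : ninv s y = ninv s x := by
  obtain ⟨g, hg⟩ := exists_conj_zpowers hG hx hy
  have hyx : g⁻¹ * y * g ∈ zpowers x := (hg y).1 (mem_zpowers y)
  have hxy : g * x * g⁻¹ ∈ zpowers y := by
    rw [hg]
    have e : g⁻¹ * (g * x * g⁻¹) * g = x := by group
    rw [e]
    exact mem_zpowers x
  refine Nat.card_congr ⟨fun b => ⟨g⁻¹ * b.1 * g, ?_, ?_⟩, fun b => ⟨g * b.1 * g⁻¹, ?_, ?_⟩, ?_, ?_⟩
  · exact b.2.1.trans (isConj_iff.2 ⟨g⁻¹, by group⟩)
  · have h1 := inv_of_mem hxy b.2.2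
    have e : g⁻¹ * b.1 * g * x * (g⁻¹ * b.1 * g)⁻¹ = g⁻¹ * (b.1 * (g * x * g⁻¹) * b.1⁻¹) * g := by group
    rw [e, h1]
    group
  · exact b.2.1.trans (isConj_iff.2 ⟨g, rfl⟩)
  · have h1 := inv_of_mem hyx b.2.2
    have e : g * b.1 * g⁻¹ * y * (g * b.1 * g⁻¹)⁻¹ = g * (b.1 * (g⁻¹ * y * g) * b.1⁻¹) * g⁻¹ := by group
    rw [e, h1]
    group
  · intro b
    apply Subtype.ext
    show g * (g⁻¹ * b.1 * g) * g⁻¹ = b.1
    group
  · intro b
    apply Subtype.ext
    show g⁻¹ * (g * b.1 * g⁻¹) * g = b.1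
    group

omit [Finite G] in
/-- conjugates of `s` inverting `y`, multiplied by elements of `⟨y⟩` -/
theorem mul_mem_inv {r : ℕ} [hr : Fact r.Prime] (hr2 : r ≠ 2) {s b y z : G} (hy : orderOf y = r) (hz : z ∈ zpowers y)
    (hb : IsConj s b) (hby : b * y * b⁻¹ = y⁻¹) : IsConj s (z * b) ∧ z * b * y * (z * b)⁻¹ = y⁻¹ := by
  have hzc : z * y = y * z := by
    obtain ⟨m, rfl⟩ := hz
    exact ((Commute.refl y).zpow_left m).eq
  have hzr : z ^ r = 1 := by
    obtain ⟨m, rfl⟩ := hz
    simp only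
    rw [← zpow_natCast, ← zpow_mul, mul_comm, zpow_mul, zpow_natCast, ← hy, pow_orderOf_eq_one, one_zpow]
  constructor
  · obtain ⟨k, hk⟩ : ∃ k, r = 2 * k + 1 := (hr.out.odd_of_ne_two hr2)
    have hw : z ^ (k + 1) ∈ zpowers y := pow_mem hz _
    have h1 : b * z ^ (k + 1) * b⁻¹ = (z ^ (k + 1))⁻¹ := inv_of_mem hw hby
    have h2 : z * b = z ^ (k + 1) * b * (z ^ (k + 1))⁻¹ := by
      have h3 : b * (z ^ (k + 1))⁻¹ = z ^ (k + 1) * b := by
        have h4 := congrArg (fun t => t⁻¹) h1
        simp only [mul_inv_rev, inv_inv] at h4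
        -- b * ((z^(k+1))⁻¹ * b⁻¹) = z^(k+1)
        rw [← mul_assoc] at h4
        exact mul_inv_eq_iff_eq_mul.1 h4
      rw [mul_assoc, h3, ← mul_assoc, ← pow_add]
      have h5 : k + 1 + (k + 1) = r + 1 := by omega
      rw [h5, pow_succ, hzr, one_mul]
    rw [h2]
    exact hb.trans (isConj_iff.2 ⟨_, rfl⟩)
  · calc z * b * y * (z * b)⁻¹ = z * (b * y * b⁻¹) * z⁻¹ := by group
      _ = z * y⁻¹ * z⁻¹ := by rw [hby]
      _ = (z * y * z⁻¹)⁻¹ := by group
      _ = y⁻¹ := by rw [hzc, mul_inv_cancel_right]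

omit [Finite G] in
/-- `r ∤ o(w)` iff `w ^ M = 1` -/
theorem not_dvd_iff {r M : ℕ} [hr : Fact r.Prime] (hM : Nat.card G = r * M) (hrM : ¬ r ∣ M) (w : G) :
    ¬ r ∣ orderOf w ↔ w ^ M = 1 := by
  rw [← orderOf_dvd_iff_pow_eq_one]
  constructor
  · intro h
    have h1 : orderOf w ∣ r * M := hM ▸ orderOf_dvd_natCard w
    exact (Nat.Coprime.dvd_of_dvd_mul_left ((hr.out.coprime_iff_not_dvd.2 h).symm) h1)
  · intro h h1
    exact hrM (h1.trans h)

/-- exactly one `j < r` with `r ∤ o(y ^ j u)` -/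
theorem card_good {r M : ℕ} [hr : Fact r.Prime] (hG : ¬ r ^ 2 ∣ Nat.card G) (hM : Nat.card G = r * M) (hrM : ¬ r ∣ M)
    {y u : G} (hy : orderOf y = r) (hc : u * y = y * u) [DecidablePred fun j : ℕ => ¬ r ∣ orderOf (y ^ j * u)] :
    ((Finset.range r).filter fun j => ¬ r ∣ orderOf (y ^ j * u)).card = 1 := by
  classical
  -- `u ^ M ∈ ⟨y⟩`
  have hcu : Commute u y := hc
  have huM : u ^ M ∈ zpowers y := by
    have h1 : (u ^ M) ^ r = 1 := by rw [← pow_mul, mul_comm, ← hM, pow_card_eq_one']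
    rcases (Nat.dvd_prime hr.out).1 (orderOf_dvd_of_pow_eq_one h1) with h2 | h2
    · rw [orderOf_eq_one_iff.1 h2]
      exact one_mem _
    · rw [← zpowers_eq_of_comm hG hy h2 (hcu.pow_left M).eq]
      exact mem_zpowers _
  obtain ⟨k, hk⟩ : ∃ k : ℕ, y ^ k = u ^ M := by
    have h1 := (mem_powers_iff_mem_zpowers (x := y)).2 huM
    exact h1
  have hiff : ∀ j : ℕ, ¬ r ∣ orderOf (y ^ j * u) ↔ ((j : ZMod r) * M + k = 0) := by
    intro j
    rw [not_dvd_iff hM hrM, (hcu.symm.pow_left j).mul_pow, ← hk, ← pow_mul, ← pow_add, ← orderOf_dvd_iff_pow_eq_one, hy,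
      ← ZMod.natCast_eq_zero_iff]
    push_cast
    rfl
  have hM0 : (M : ZMod r) ≠ 0 := by
    rw [Ne, ZMod.natCast_eq_zero_iff]
    exact hrM
  rw [Finset.card_eq_one]
  refine ⟨((-k) * (M : ZMod r)⁻¹ : ZMod r).val, ?_⟩
  ext j
  rw [Finset.mem_filter, Finset.mem_range, Finset.mem_singleton, hiff]
  constructor
  · rintro ⟨h1, h2⟩
    have h3 : (j : ZMod r) = (-k) * (M : ZMod r)⁻¹ := by
      rw [eq_mul_inv_iff_mul_eq₀ hM0]
      exact eq_neg_of_add_eq_zero_left h2
    rw [← h3, ZMod.val_natCast, Nat.mod_eq_of_lt h1]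
  · intro h
    subst h
    refine ⟨ZMod.val_lt _, ?_⟩
    rw [ZMod.natCast_zmod_val, mul_assoc, inv_mul_cancel₀ hM0, mul_one, neg_add_cancel]

/-- the `r`-regular ones are a fraction `1 / r` -/
theorem card_regular {r : ℕ} [hr : Fact r.Prime] [Fintype G] (hr2 : r ≠ 2) (hG : ¬ r ^ 2 ∣ Nat.card G) {s y : G}
    (hs : s * s = 1) (hy : orderOf y = r) (hinv : s * y * s⁻¹ = y⁻¹)
    [DecidablePred fun b : G => (IsConj s b ∧ b * y * b⁻¹ = y⁻¹)]
    [DecidablePred fun b : G => (IsConj s b ∧ b * y * b⁻¹ = y⁻¹) ∧ ¬ r ∣ orderOf (b * s)] :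
    r * (Finset.univ.filter fun b : G => (IsConj s b ∧ b * y * b⁻¹ = y⁻¹) ∧ ¬ r ∣ orderOf (b * s)).card =
      (Finset.univ.filter fun b : G => (IsConj s b ∧ b * y * b⁻¹ = y⁻¹)).card := by
  classical
  obtain ⟨M, hM⟩ : r ∣ Nat.card G := hy ▸ orderOf_dvd_natCard y
  have hrM : ¬ r ∣ M := by
    rintro ⟨c, rfl⟩
    apply hG
    rw [hM, pow_two]
    exact ⟨c, by ring⟩
  set I := Finset.univ.filter fun b : G => (IsConj s b ∧ b * y * b⁻¹ = y⁻¹) with hI
  have hsi : s⁻¹ = s := inv_eq_of_mul_eq_one_left hs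
  -- `b s` centralises `y`
  have hbs : ∀ b ∈ I, b * s * y = y * (b * s) := by
    intro b hb
    have h1 := (Finset.mem_filter.1 hb).2.2
    have h2 : s * y = y⁻¹ * s := mul_inv_eq_iff_eq_mul.1 hinv
    have h3 : b * y = y⁻¹ * b := mul_inv_eq_iff_eq_mul.1 h1
    have h4 : b * y⁻¹ = y * b := by
      rw [mul_inv_eq_iff_eq_mul, mul_assoc, h3, mul_inv_cancel_left]
    rw [mul_assoc, h2, ← mul_assoc, h4, mul_assoc]
  have hd := Finset.sum_card_bipartiteAbove_eq_sum_card_bipartiteBelow
    (s := I) (t := Finset.range r) (fun (b : G) (j : ℕ) => ¬ r ∣ orderOf (y ^ j * (b * s)))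
  have hleft : ∑ a ∈ I, ((Finset.range r).bipartiteAbove (fun (b : G) (j : ℕ) => ¬ r ∣ orderOf (y ^ j * (b * s))) a).card =
      I.card := by
    rw [Finset.card_eq_sum_ones]
    refine Finset.sum_congr rfl fun b hb => ?_
    exact card_good hG hM hrM hy (hbs b hb)
  have hright : ∀ j ∈ Finset.range r,
      (I.bipartiteBelow (fun (b : G) (j : ℕ) => ¬ r ∣ orderOf (y ^ j * (b * s))) j).card =
      (Finset.univ.filter fun b : G => (IsConj s b ∧ b * y * b⁻¹ = y⁻¹) ∧ ¬ r ∣ orderOf (b * s)).card := by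
    intro j _
    have hyj : y ^ j ∈ zpowers y := pow_mem (mem_zpowers y) j
    refine Finset.card_bij' (fun b _ => y ^ j * b) (fun b _ => (y ^ j)⁻¹ * b) ?_ ?_ ?_ ?_
    · intro b hb
      rw [Finset.mem_bipartiteBelow, hI, Finset.mem_filter] at hb
      rw [Finset.mem_filter]
      refine ⟨Finset.mem_univ _, mul_mem_inv hr2 hy hyj hb.1.2.1 hb.1.2.2, ?_⟩
      rw [mul_assoc]
      exact hb.2
    · intro b hb
      rw [Finset.mem_filter] at hb
      rw [Finset.mem_bipartiteBelow, hI, Finset.mem_filter]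
      refine ⟨⟨Finset.mem_univ _, mul_mem_inv hr2 hy (inv_mem hyj) hb.2.1.1 hb.2.1.2⟩, ?_⟩
      have e : y ^ j * ((y ^ j)⁻¹ * b * s) = b * s := by group
      rw [e]
      exact hb.2.2
    · intro b _
      exact inv_mul_cancel_left _ _
    · intro b _
      exact mul_inv_cancel_left _ _
  rw [hleft, Finset.sum_congr rfl hright, Finset.sum_const, Finset.card_range, smul_eq_mul] at hd
  exact hd.symm

/-- for `y` of order `r`: the number of conjugates `b` of `s` with `y ∈ ⟨b s⟩` -/
theorem card_above {r i : ℕ} [hr : Fact r.Prime] [Fintype G] (hr2 : r ≠ 2) (hG : ¬ r ^ 2 ∣ Nat.card G) {s y : G}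
    (hs : s * s = 1) (hy : orderOf y = r) (hn : ninv s y = r * i) (hinv : s * y * s⁻¹ = y⁻¹)
    [DecidablePred fun b : G => IsConj s b ∧ y ∈ zpowers (b * s)] :
    (Finset.univ.filter fun b : G => IsConj s b ∧ y ∈ zpowers (b * s)).card = (r - 1) * i := by
  classical
  have hsi : s⁻¹ = s := inv_eq_of_mul_eq_one_left hs
  have h1 := card_regular hr2 hG hs hy hinv
  have h2 : (Finset.univ.filter fun b : G => (IsConj s b ∧ b * y * b⁻¹ = y⁻¹)).card = r * i := by
    rw [← hn, ninv, Nat.card_eq_fintype_card, Fintype.card_subtype]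
  rw [h2] at h1
  have h3 := Nat.eq_of_mul_eq_mul_left hr.out.pos h1
  have h4 := Finset.card_filter_add_card_filter_not (s := Finset.univ.filter fun b : G => (IsConj s b ∧ b * y * b⁻¹ = y⁻¹))
    (fun b : G => r ∣ orderOf (b * s))
  rw [Finset.filter_filter, Finset.filter_filter, h2, h3] at h4
  have h5 : (Finset.univ.filter fun b : G => IsConj s b ∧ y ∈ zpowers (b * s)) =
      Finset.univ.filter fun b : G => (IsConj s b ∧ b * y * b⁻¹ = y⁻¹) ∧ r ∣ orderOf (b * s) := by
    ext b
    rw [Finset.mem_filter, Finset.mem_filter]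
    simp only [Finset.mem_univ, true_and]
    constructor
    · rintro ⟨hb, hm⟩
      have hb2 : b * b = 1 := mul_self_of_isConj hs hb
      have hbi : b⁻¹ = b := inv_eq_of_mul_eq_one_left hb2
      refine ⟨⟨hb, inv_of_mem hm ?_⟩, ?_⟩
      · rw [mul_inv_rev, hsi, hbi, ← mul_assoc, hb2, one_mul]
      · rw [← hy]
        exact orderOf_dvd_of_mem_zpowers hm
    · rintro ⟨⟨hb, hby⟩, hd⟩
      refine ⟨hb, ?_⟩
      have hbs : b * s * y = y * (b * s) := by
        have h2 : s * y = y⁻¹ * s := mul_inv_eq_iff_eq_mul.1 hinv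
        have h3 : b * y = y⁻¹ * b := mul_inv_eq_iff_eq_mul.1 hby
        have h4 : b * y⁻¹ = y * b := by
          rw [mul_inv_eq_iff_eq_mul, mul_assoc, h3, mul_inv_cancel_left]
        rw [mul_assoc, h2, ← mul_assoc, h4, mul_assoc]
      obtain ⟨c, hc⟩ := hd
      have hz : orderOf ((b * s) ^ c) = r := by
        have hc0 : c ≠ 0 := by
          rintro rfl
          rw [mul_zero] at hc
          exact (orderOf_pos (b * s)).ne' hc
        rw [orderOf_pow' _ hc0, hc, Nat.gcd_mul_left_left, Nat.mul_div_cancel _ (Nat.pos_of_ne_zero hc0)]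
      have h6 := zpowers_eq_of_comm hG hy hz ((show Commute (b * s) y from hbs).pow_left c).eq
      have h7 : y ∈ zpowers ((b * s) ^ c) := by rw [h6]; exact mem_zpowers y
      exact (zpowers_le.2 (pow_mem (mem_zpowers (b * s)) c)) h7
  rw [h5]
  have hr1 : 1 ≤ r := hr.out.one_lt.le
  obtain ⟨t, rfl⟩ : ∃ t, r = t + 1 := ⟨r - 1, by omega⟩
  rw [Nat.add_sub_cancel]
  have h6 : (t + 1) * i = t * i + i := by ring
  omega

omit [Finite G] in
/-- for `y` of order `r` not inverted by `s` -/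
theorem card_above_zero [Fintype G] {s y : G} (hs : s * s = 1) (hinv : s * y * s⁻¹ ≠ y⁻¹)
    [DecidablePred fun b : G => IsConj s b ∧ y ∈ zpowers (b * s)] :
    (Finset.univ.filter fun b : G => IsConj s b ∧ y ∈ zpowers (b * s)).card = 0 := by
  rw [Finset.card_eq_zero, Finset.filter_eq_empty_iff]
  rintro b - ⟨hb, hm⟩
  have hb2 : b * b = 1 := mul_self_of_isConj hs hb
  have hbi : b⁻¹ = b := inv_eq_of_mul_eq_one_left hb2
  have hsi : s⁻¹ = s := inv_eq_of_mul_eq_one_left hs
  apply hinv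
  refine inv_of_mem hm ?_
  rw [mul_inv_rev, hsi, hbi, mul_assoc, mul_assoc, hs, mul_one]

end aux

/-- **the criterion** -/
theorem BD_of_inv {G : Type u} [Group G] [Finite G] {p r : ℕ} [hp : Fact p.Prime] [hr : Fact r.Prime] (hr2 : r ≠ 2)
    (hrp : r ≠ p) (hG : ¬ r ^ 2 ∣ Nat.card G) {s x : G} (hs : s * s = 1) (hx : orderOf x = r)
    (hinv : s * x * s⁻¹ = x⁻¹) (hp1 : ¬ p ∣ r - 1)
    (hC : Nat.card (Subgroup.centralizer ({x} : Set G)) < p * r) {m : ℕ}
    (hm : p ^ m ∣ (Subgroup.centralizer ({s} : Set G)).index)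
    (h : ¬ p ^ m ∣ Nat.card (Subgroup.centralizer ({s} : Set G))) : Cfsg.Agent.H133.PB.BD p r G := by
  classical
  have := Fintype.ofFinite G
  -- `n = r i`, `0 < i < p`
  obtain ⟨i, hi⟩ : r ∣ ninv s x := by
    have h1 := orderOf_dvd_ninv (t := s) (g := x) (by rw [hx]; exact hr.out.odd_of_ne_two hr2)
    rwa [hx] at h1
  have hi0 : 0 < i := by
    rcases Nat.eq_zero_or_pos i with h0 | h0
    · rw [h0, mul_zero] at hi
      exact absurd hi (ninv_pos hinv).ne'
    · exact h0
  have hip : i < p := by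
    have h1 := (ninv_le s x).trans_lt hC
    rw [hi, mul_comm p r] at h1
    exact Nat.lt_of_mul_lt_mul_left h1
  have hpi : ¬ p ∣ i := fun hd => absurd (Nat.le_of_dvd hi0 hd) (by omega)
  have hny : ∀ y : G, orderOf y = r → ninv s y = r * i := fun y hy => (ninv_eq hG s hx hy).trans hi
  refine BD.of_singular_count hrp s s hm ?_
  intro hT
  -- the two counts
  set T := Nat.card {b : G // IsConj s b ∧ r ∣ orderOf (b * s)} with hTdef
  set X := Finset.univ.filter fun y : G => orderOf y = r with hX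
  set c := (X.filter fun y : G => s * y * s⁻¹ = y⁻¹).card with hc
  set S := Finset.univ.filter fun b : G => IsConj s b with hS
  have h1 : T * (r - 1) = c * ((r - 1) * i) := by
    have hd := Finset.sum_card_bipartiteAbove_eq_sum_card_bipartiteBelow
      (s := S) (t := X) (fun (b y : G) => y ∈ zpowers (b * s))
    have hl : ∀ b ∈ S, (X.bipartiteAbove (fun (b y : G) => y ∈ zpowers (b * s)) b).card =
        if r ∣ orderOf (b * s) then r - 1 else 0 := by
      intro b _
      rw [← card_orderOf_zpowers, Finset.bipartiteAbove, hX, Finset.filter_filter]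
    rw [Finset.sum_congr rfl hl, ← Finset.sum_filter, Finset.sum_const, smul_eq_mul, hS, Finset.filter_filter] at hd
    have hT' : T = (Finset.univ.filter fun b : G => IsConj s b ∧ r ∣ orderOf (b * s)).card := by
      rw [hTdef, Nat.card_eq_fintype_card, Fintype.card_subtype]
    rw [hT', hd]
    have hr' : ∀ y ∈ X, ((Finset.univ.filter fun b : G => IsConj s b).bipartiteBelow
        (fun (b y : G) => y ∈ zpowers (b * s)) y).card = if s * y * s⁻¹ = y⁻¹ then (r - 1) * i else 0 := by
      intro y hy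
      have hy' : orderOf y = r := (Finset.mem_filter.1 hy).2
      rw [Finset.bipartiteBelow, Finset.filter_filter]
      split_ifs with h2
      · exact card_above hr2 hG hs hy' (hny y hy') h2
      · exact card_above_zero hs h2
    rw [Finset.sum_congr rfl hr', ← Finset.sum_filter, Finset.sum_const, smul_eq_mul]
  have hr1 : 0 < r - 1 := by have := hr.out.two_le; omega
  have h2 : T = c * i := by
    refine Nat.eq_of_mul_eq_mul_right hr1 ?_
    rw [h1]
    ring
  -- `c |s^G| = |X| n`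
  have h3 : S.card * c = X.card * (r * i) := by
    have hd := Finset.sum_card_bipartiteAbove_eq_sum_card_bipartiteBelow
      (s := S) (t := X) (fun (b y : G) => b * y * b⁻¹ = y⁻¹)
    have hl : ∀ b ∈ S, (X.bipartiteAbove (fun (b y : G) => b * y * b⁻¹ = y⁻¹) b).card = c := by
      intro b hb
      obtain ⟨g, rfl⟩ := isConj_iff.1 (Finset.mem_filter.1 hb).2
      rw [hc]
      refine Finset.card_bij' (fun y _ => g⁻¹ * y * g) (fun y _ => g * y * g⁻¹) ?_ ?_ ?_ ?_
      · intro y hy
        rw [Finset.mem_bipartiteAbove, hX, Finset.mem_filter] at hy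
        rw [Finset.mem_filter, hX, Finset.mem_filter]
        refine ⟨⟨Finset.mem_univ _, ?_⟩, ?_⟩
        · have h5 := orderOf_injective (MulAut.conj g⁻¹).toMonoidHom (MulAut.conj g⁻¹).injective y
          have e : (MulAut.conj g⁻¹).toMonoidHom y = g⁻¹ * y * g := by
            show g⁻¹ * y * g⁻¹⁻¹ = _
            rw [inv_inv]
          rw [e] at h5
          rw [h5]
          exact hy.1.2
        · have e : s * (g⁻¹ * y * g) * s⁻¹ = g⁻¹ * (g * s * g⁻¹ * y * (g * s * g⁻¹)⁻¹) * g := by group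
          rw [e, hy.2]
          group
      · intro y hy
        rw [Finset.mem_filter, hX, Finset.mem_filter] at hy
        rw [Finset.mem_bipartiteAbove, hX, Finset.mem_filter]
        refine ⟨⟨Finset.mem_univ _, ?_⟩, ?_⟩
        · have h5 := orderOf_injective (MulAut.conj g).toMonoidHom (MulAut.conj g).injective y
          have e : (MulAut.conj g).toMonoidHom y = g * y * g⁻¹ := rfl
          rw [e] at h5
          rw [h5]
          exact hy.1.2
        · have e : g * s * g⁻¹ * (g * y * g⁻¹) * (g * s * g⁻¹)⁻¹ = g * (s * y * s⁻¹) * g⁻¹ := by group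
          rw [e, hy.2]
          group
      · intro y _
        show g * (g⁻¹ * y * g) * g⁻¹ = y
        group
      · intro y _
        show g⁻¹ * (g * y * g⁻¹) * g = y
        group
    have hr' : ∀ y ∈ X, (S.bipartiteBelow (fun (b y : G) => b * y * b⁻¹ = y⁻¹) y).card = r * i := by
      intro y hy
      have hy' : orderOf y = r := (Finset.mem_filter.1 hy).2
      rw [← hny y hy', ninv, Nat.card_eq_fintype_card, Fintype.card_subtype, Finset.bipartiteBelow, hS,
        Finset.filter_filter]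
    rw [Finset.sum_congr rfl hl, Finset.sum_congr rfl hr', Finset.sum_const, Finset.sum_const, smul_eq_mul,
      smul_eq_mul] at hd
    exact hd
  have hScard : S.card = (Subgroup.centralizer ({s} : Set G)).index :=
    Cfsg.Agent.Characters.ClassMul.card_filter_isConj s
  obtain ⟨P⟩ : Nonempty (Sylow r G) := inferInstance
  have hXcard : X.card = Nat.card (Sylow r G) * (r - 1) := by
    have h5 := Cfsg.Agent.Ly.McL.Simple.card_orderOf_prime (G := G) (p := r) (fun P => card_sylow_of hG hx P)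
    rw [Nat.card_eq_fintype_card, Fintype.card_subtype] at h5
    exact h5
  have hsyl : Nat.card (Sylow r G) * Nat.card (normalizer ((P : Subgroup G) : Set G)) = Nat.card G := by
    rw [Sylow.card_eq_index_normalizer P]
    exact Subgroup.index_mul_card _
  have hcent := (Subgroup.centralizer ({s} : Set G)).index_mul_card
  -- `c |N| = |C(s)| (r - 1) r i`
  have h4 : c * Nat.card (normalizer ((P : Subgroup G) : Set G)) =
      Nat.card (Subgroup.centralizer ({s} : Set G)) * ((r - 1) * (r * i)) := by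
    have hpos : 0 < Nat.card G := Nat.card_pos
    refine Nat.eq_of_mul_eq_mul_left hpos ?_
    have e1 : Nat.card G * (c * Nat.card (normalizer ((P : Subgroup G) : Set G))) =
        Nat.card (Subgroup.centralizer ({s} : Set G)) * (S.card * c) *
          Nat.card (normalizer ((P : Subgroup G) : Set G)) := by
      rw [hScard, ← hcent]
      ring
    rw [e1, h3, hXcard, ← hsyl]
    ring
  -- the end
  apply h
  have h5 : p ^ m ∣ Nat.card (Subgroup.centralizer ({s} : Set G)) * ((r - 1) * (r * (i * i))) := by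
    refine hT.trans ⟨Nat.card (normalizer ((P : Subgroup G) : Set G)), ?_⟩
    have e : T * Nat.card (normalizer ((P : Subgroup G) : Set G)) =
        (c * Nat.card (normalizer ((P : Subgroup G) : Set G))) * i := by rw [h2]; ring
    rw [e, h4]
    ring
  have hcop : Nat.Coprime (p ^ m) ((r - 1) * (r * (i * i))) := by
    refine Nat.Coprime.pow_left m ?_
    rw [hp.out.coprime_iff_not_dvd, hp.out.dvd_mul, hp.out.dvd_mul, hp.out.dvd_mul]
    rintro (h6 | h6 | h6 | h6)
    · exact hp1 h6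
    · exact hrp ((Nat.prime_dvd_prime_iff_eq hp.out hr.out).1 h6).symm
    · exact hpi h6
    · exact hpi h6
  exact hcop.dvd_of_dvd_mul_right h5

end Cfsg.Agent.H841.PB
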